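import Mathlib

/-! A double counting bound for centralizer orders. -/

set_option autoImplicit false

open Subgroup

namespace H10.Dc

theorem dc {G : Type*} [Group G] [Finite G] (H : Subgroup G) (z : G) (S : Set G)
    (hS : ∀ g, g ∈ S ↔ ∃ h ∈ H, g = h * z * h⁻¹) {ι : Type*} [Fintype ι] (O : ι → Set (G ⧸ H))
    (o n : ι → ℕ) (hcov : ∀ g : G, ∃ i, (g : G ⧸ H) ∈ O i) (hO : ∀ i, (O i).ncard ≤ o i)
    (hn : ∀ i (g : G), (g : G ⧸ H) ∈ O i → {s | s ∈ S ∧ g⁻¹ * s * g ∈ S}.ncard ≤ n i) :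
    S.ncard ^ 2 * Nat.card (centralizer ({z} : Set G)) ≤ Nat.card H * ∑ i, o i * n i := by
  classical
  haveI := Fintype.ofFinite G
  choose I hI using hcov
  have hS' : ∀ s : S, ∃ h : G, (s : G) = h * z * h⁻¹ := fun s => by
    obtain ⟨h, -, e⟩ := (hS s).1 s.2
    exact ⟨h, e⟩
  choose w hw using hS'
  have key : ∀ (s t : S) (c : centralizer ({z} : Set G)),
      (w s * c * (w t)⁻¹)⁻¹ * s * (w s * c * (w t)⁻¹) = t := by
    intro s t c
    have hc : z * c = c * z := c.2 z rfl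
    rw [hw t]
    conv_lhs => enter [1, 2]; rw [hw s]
    calc _ = w t * ((c : G)⁻¹ * (z * c)) * (w t)⁻¹ := by group
      _ = _ := by rw [hc]; group
  let f : S × S × centralizer ({z} : Set G) →
      Σ g : G, {s | s ∈ S ∧ g⁻¹ * s * g ∈ S} := fun x =>
    ⟨w x.1 * x.2.2 * (w x.2.1)⁻¹, x.1, x.1.2, by rw [key]; exact x.2.1.2⟩
  have hf : Function.Injective f := by
    rintro ⟨s, t, c⟩ ⟨s', t', c'⟩ e
    have e1 : w s * c * (w t)⁻¹ = w s' * c' * (w t')⁻¹ := congrArg Sigma.fst e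
    have e2 : (s : G) = s' := congrArg (fun x : Σ g : G, {s | s ∈ S ∧ g⁻¹ * s * g ∈ S} => (x.2 : G)) e
    obtain rfl : s = s' := Subtype.ext e2
    have e3 : (t : G) = t' := by rw [← key s t c, ← key s t' c', e1]
    obtain rfl : t = t' := Subtype.ext e3
    obtain rfl : c = c' := Subtype.ext (by simpa using e1)
    rfl
  have h1 := Nat.card_le_card_of_injective f hf
  rw [Nat.card_prod, Nat.card_prod, Nat.card_sigma, Nat.card_coe_set_eq] at h1
  calc _ = S.ncard * (S.ncard * Nat.card (centralizer ({z} : Set G))) := by ring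
    _ ≤ _ := h1
    _ ≤ ∑ g : G, n (I g) := Finset.sum_le_sum fun g _ => by
        rw [Nat.card_coe_set_eq]; exact hn _ g (hI g)
    _ = ∑ i, ∑ g ∈ Finset.univ.filter (fun g => I g = i), n (I g) :=
        (Finset.sum_fiberwise Finset.univ I _).symm
    _ ≤ ∑ i, Nat.card H * (o i * n i) := Finset.sum_le_sum fun i _ => by
        rw [Finset.sum_congr rfl (g := fun _ => n i)
          (fun g hg => by rw [(Finset.mem_filter.1 hg).2]), Finset.sum_const, smul_eq_mul,
          ← mul_assoc]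
        refine Nat.mul_le_mul_right _ ?_
        calc _ ≤ (QuotientGroup.mk ⁻¹' O i : Set G).ncard := by
              rw [← Set.ncard_coe_finset]
              refine Set.ncard_le_ncard (fun g hg => ?_)
              have := (Finset.mem_filter.1 (Finset.mem_coe.1 hg)).2
              exact this ▸ hI g
          _ = Nat.card H * (O i).ncard := by
              rw [← Nat.card_coe_set_eq, QuotientGroup.card_preimage_mk, Nat.card_coe_set_eq]
          _ ≤ _ := Nat.mul_le_mul_left _ (hO i)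
    _ = _ := (Finset.mul_sum _ _ _).symm

theorem dc_inv {G : Type*} [Group G] (H : Subgroup G) (z : G) (S : Set G)
    (hS : ∀ g, g ∈ S ↔ ∃ h ∈ H, g = h * z * h⁻¹) (g : G) {k h : G} (hk : k ∈ H) (hh : h ∈ H) :
    {s | s ∈ S ∧ (k * g * h)⁻¹ * s * (k * g * h) ∈ S}.ncard =
      {s | s ∈ S ∧ g⁻¹ * s * g ∈ S}.ncard := by
  have c1 : ∀ a ∈ H, ∀ s ∈ S, a * s * a⁻¹ ∈ S := fun a ha s hs => by
    obtain ⟨b, hb, rfl⟩ := (hS s).1 hs
    exact (hS _).2 ⟨a * b, H.mul_mem ha hb, by group⟩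
  refine Set.ncard_congr (fun s _ => k⁻¹ * s * k) ?_ ?_ ?_
  · rintro s ⟨h1, h2⟩
    refine ⟨by simpa using c1 _ (H.inv_mem hk) s h1, ?_⟩
    have := c1 h hh _ h2
    convert this using 1
    group
  · intro a b _ _ e
    simpa using e
  · rintro t ⟨h1, h2⟩
    refine ⟨k * t * k⁻¹, ⟨c1 k hk t h1, ?_⟩, by group⟩
    have := c1 _ (H.inv_mem hh) _ h2
    convert this using 1
    group

end H10.Dc
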