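import Mathlib

/-! Conjugacy of elements of order 11 in a group with an extraspecial Sylow 11-subgroup. -/

set_option autoImplicit false
set_option maxRecDepth 100000

namespace H10.C11

variable {G : Type*} [Group G]

structure Hs (a b d : G) : Prop where
  a11 : a ^ 11 = 1
  b11 : b ^ 11 = 1
  d11 : d ^ 11 = 1
  ba : b * a = a * b * d
  da : d * a = a * d
  db : d * b = b * d
  d1 : d ≠ 1

def f (a b d : G) (i j k : ℕ) : G := a ^ i * b ^ j * d ^ k

variable {a b d : G}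

theorem Hs.comm (h : Hs a b d) (i j : ℕ) : b ^ j * a ^ i = a ^ i * b ^ j * d ^ (i * j) := by
  have ca : Commute d a := h.da
  have cb : Commute d b := h.db
  have h1 : ∀ i : ℕ, b * a ^ i = a ^ i * b * d ^ i := fun i => by
    induction i with
    | zero => simp
    | succ i ih =>
      rw [pow_succ, ← mul_assoc, ih, mul_assoc _ _ a, (ca.pow_left i).eq, ← mul_assoc,
        mul_assoc _ b a, h.ba, pow_succ' d]
      simp only [mul_assoc]
  induction j with
  | zero => simp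
  | succ j ih =>
    rw [pow_succ', mul_assoc, ih, ← mul_assoc, ← mul_assoc, h1, mul_assoc _ _ (b ^ j),
      (cb.pow_pow i j).eq, mul_add, mul_one, add_comm, pow_add]
    simp only [mul_assoc]

theorem Hs.mul (h : Hs a b d) (i j k i' j' k' : ℕ) :
    f a b d i j k * f a b d i' j' k' = f a b d (i + i') (j + j') (i' * j + k + k') := by
  have ca : Commute d a := h.da
  have cb : Commute d b := h.db
  calc _ = a ^ i * (b ^ j * (d ^ k * a ^ i')) * b ^ j' * d ^ k' := by simp only [f, mul_assoc]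
    _ = a ^ i * (a ^ i' * b ^ j * (d ^ (i' * j) * d ^ k * b ^ j')) * d ^ k' := by
      rw [(ca.pow_pow k i').eq, ← mul_assoc (b ^ j), h.comm]; simp only [mul_assoc]
    _ = _ := by
      rw [← pow_add, (cb.pow_pow _ j').eq]; simp only [f, pow_add, mul_assoc]

theorem Hs.md (h : Hs a b d) (i j k : ℕ) : f a b d (i % 11) (j % 11) (k % 11) = f a b d i j k := by
  rw [f, f, ← pow_eq_pow_mod _ h.a11, ← pow_eq_pow_mod _ h.b11, ← pow_eq_pow_mod _ h.d11]

theorem Hs.pow (h : Hs a b d) (i j k n : ℕ) : ∃ l, f a b d i j k ^ n = f a b d (i * n) (j * n) l := by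
  induction n with
  | zero => exact ⟨0, by simp [f]⟩
  | succ n ih =>
    obtain ⟨l, e⟩ := ih
    exact ⟨_, by rw [pow_succ, e, h.mul, mul_add, mul_add, mul_one, mul_one]⟩

theorem Hs.dinj (h : Hs a b d) {i j : ℕ} (e : d ^ i = d ^ j) : i % 11 = j % 11 := by
  haveI : Fact (Nat.Prime 11) := ⟨by norm_num⟩
  have := pow_eq_pow_iff_modEq.1 e
  rwa [orderOf_eq_prime h.d11 h.d1] at this

theorem Hs.inj (h : Hs a b d) {i j k i' j' k' : ℕ} (e : f a b d i j k = f a b d i' j' k') :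
    i % 11 = i' % 11 ∧ j % 11 = j' % 11 ∧ k % 11 = k' % 11 := by
  have z : ∀ i j k l, f a b d i j (k + l) = f a b d i j k * d ^ l := fun i j k l => by
    simp [f, pow_add, mul_assoc]
  have hb : ∀ i j k, f a b d 0 1 0 * f a b d i j k = f a b d i j k * f a b d 0 1 0 * d ^ i :=
    fun i j k => by rw [h.mul, h.mul, ← z]; congr 1 <;> ring
  have ha : ∀ i j k, f a b d i j k * f a b d 1 0 0 = f a b d 1 0 0 * f a b d i j k * d ^ j :=
    fun i j k => by rw [h.mul, h.mul, ← z]; congr 1 <;> ring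
  have h1 : i % 11 = i' % 11 := h.dinj (by
    have := hb i j k
    rw [e, hb] at this
    exact (mul_left_cancel this).symm)
  have h2 : j % 11 = j' % 11 := h.dinj (by
    have := ha i j k
    rw [e, ha] at this
    exact (mul_left_cancel this).symm)
  refine ⟨h1, h2, ?_⟩
  rw [← h.md, ← h.md i', h1, h2] at e
  simpa using h.dinj (mul_left_cancel e)

def Hs.P (h : Hs a b d) : Subgroup G where
  carrier := {g | ∃ i j k, g = f a b d i j k}
  one_mem' := ⟨0, 0, 0, by simp [f]⟩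
  mul_mem' := by
    rintro _ _ ⟨i, j, k, rfl⟩ ⟨i', j', k', rfl⟩
    exact ⟨_, _, _, h.mul ..⟩
  inv_mem' := by
    rintro _ ⟨i, j, k, rfl⟩
    refine ⟨10 * i, 10 * j, 10 * (10 * i * j + k), inv_eq_of_mul_eq_one_right ?_⟩
    rw [h.mul, ← h.md, show (i + 10 * i) % 11 = 0 by omega, show (j + 10 * j) % 11 = 0 by omega,
      show (10 * i * j + k + 10 * (10 * i * j + k)) % 11 = 0 by omega]
    simp [f]

theorem Hs.card (h : Hs a b d) : Nat.card h.P = 11 ^ 3 := by
  have : Nat.card (Fin 11 × Fin 11 × Fin 11) = 11 ^ 3 := by simp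
  rw [← this]
  refine (Nat.card_congr (Equiv.ofBijective
    (fun x : Fin 11 × Fin 11 × Fin 11 => (⟨f a b d x.1 x.2.1 x.2.2, _, _, _, rfl⟩ : h.P)) ⟨?_, ?_⟩)).symm
  · rintro ⟨i, j, k⟩ ⟨i', j', k'⟩ e
    obtain ⟨h1, h2, h3⟩ := h.inj (congrArg Subtype.val e)
    simp only [Prod.mk.injEq, Fin.ext_iff] at h1 h2 h3 ⊢
    omega
  · rintro ⟨_, i, j, k, rfl⟩
    exact ⟨(⟨i % 11, by omega⟩, ⟨j % 11, by omega⟩, ⟨k % 11, by omega⟩), Subtype.ext (h.md i j k)⟩

theorem cj {g x y : G} (e : g * x = y * g) : IsConj x y :=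
  isConj_iff.2 ⟨g, by rw [e, mul_inv_cancel_right]⟩

theorem pw {g x y : G} (e : g * x = y * g) (n : ℕ) : g * x ^ n = y ^ n * g :=
  (SemiconjBy.pow_right e n)

/-- the coset of `a ^ i * b ^ j` meets the class of `a` -/
def T (a b d : G) (v : ℕ × ℕ) : Prop := ∃ k, IsConj a (f a b d v.1 v.2 k)

theorem Hs.step (h : Hs a b d) {g : G} {p q r s t u w : ℕ} (ga : g * a = f a b d p q r * g)
    (gb : g * b = f a b d s t u * g) (gd : g * d = d ^ w * g) {v : ℕ × ℕ} (hv : T a b d v) :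
    T a b d ((p * v.1 + s * v.2) % 11, (q * v.1 + t * v.2) % 11) := by
  obtain ⟨k, e⟩ := hv
  obtain ⟨l, e1⟩ := h.pow p q r v.1
  obtain ⟨m, e2⟩ := h.pow s t u v.2
  refine ⟨(s * v.2 * (q * v.1) + l + m + w * k) % 11, e.trans (cj (g := g) ?_)⟩
  rw [h.md, f, ← mul_assoc, ← mul_assoc, pw ga, mul_assoc _ g, pw gb, mul_assoc, mul_assoc, pw gd,
    e1, e2, ← mul_assoc, ← mul_assoc, h.mul, ← pow_mul]
  simp [f, pow_add, mul_assoc]

def nxt (l : List (ℕ × ℕ)) : List (ℕ × ℕ) :=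
  (l ++ l.map (fun v : ℕ × ℕ => ((6 * v.1 + 5 * v.2) % 11, (9 * v.1 + 4 * v.2) % 11)) ++
    l.map (fun v : ℕ × ℕ => ((6 * v.1 + 9 * v.2) % 11, (2 * v.1 + 4 * v.2) % 11))).dedup

theorem Hs.shift (h : Hs a b d) {i j : ℕ} (hi : i < 11) (hj : j < 11) (h0 : i ≠ 0 ∨ j ≠ 0) (k l : ℕ) :
    IsConj (f a b d i j k) (f a b d i j l) := by
  have u : ∀ i < 11, i ≠ 0 → ∃ u < 11, ∃ c < 11, i * u = 11 * c + 1 := by decide +kernel
  obtain ⟨p, q, e⟩ : ∃ p q, (i * q + k) % 11 = (p * j + l) % 11 := by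
    rcases h0 with h0 | h0
    · obtain ⟨u, -, c, -, e⟩ := u i hi h0
      refine ⟨0, u * (l + 10 * k), ?_⟩
      rw [← mul_assoc, e, add_mul, mul_assoc]
      omega
    · obtain ⟨u, -, c, -, e⟩ := u j hj h0
      refine ⟨(k + 10 * l) * u, 0, ?_⟩
      rw [mul_assoc, mul_comm u, e, mul_add, mul_left_comm]
      omega
  refine cj (g := f a b d p q 0) ?_
  rw [h.mul, h.mul, ← h.md, ← h.md (i + p), add_comm p, add_comm q]
  congr 1

theorem Hs.two [Finite G] (h : Hs a b d) (hc : (Nat.card G).factorization 11 = 3) {m n : G}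
    (ma : m * a = a ^ 6 * b ^ 9 * d ^ 5 * m) (mb : m * b = a ^ 5 * b ^ 4 * d ^ 10 * m)
    (md : m * d = d * m) (na : n * a = a ^ 6 * b ^ 2 * d ^ 6 * n)
    (nb : n * b = a ^ 9 * b ^ 4 * d ^ 7 * n) (nd : n * d = d ^ 6 * n) (w : G) (hw : orderOf w = 11) :
    IsConj w d ∨ IsConj w a := by
  haveI : Fact (Nat.Prime 11) := ⟨by norm_num⟩
  have t : ∀ r, ∀ v ∈ nxt^[r] [(1, 0)], T a b d v := fun r => by
    induction r with
    | zero =>
      intro v hv
      rw [List.mem_singleton.1 hv]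
      exact ⟨0, by rw [show f a b d 1 0 0 = a by simp [f]]⟩
    | succ r ih =>
      intro v hv
      rw [Function.iterate_succ_apply', nxt, List.mem_dedup, List.mem_append, List.mem_append] at hv
      rcases hv with (hv | hv) | hv
      · exact ih v hv
      · obtain ⟨u, hu, rfl⟩ := List.mem_map.1 hv
        exact h.step (w := 1) ma mb (by rw [pow_one, md]) (ih u hu)
      · obtain ⟨u, hu, rfl⟩ := List.mem_map.1 hv
        exact h.step na nb nd (ih u hu)
  have t1 : ∀ i : Fin 11, ∀ j : Fin 11, i.1 ≠ 0 ∨ j.1 ≠ 0 → (i.1, j.1) ∈ nxt^[11] [(1, 0)] := by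
    decide +kernel
  have t2 : ∀ i < 11, ∀ j < 11, i ≠ 0 ∨ j ≠ 0 → (i, j) ∈ nxt^[11] [(1, 0)] :=
    fun i hi j hj => t1 ⟨i, hi⟩ ⟨j, hj⟩
  have t3 : ∀ r : ℕ, IsConj d (d ^ (6 ^ r)) := fun r => by
    induction r with
    | zero => rw [pow_zero, pow_one]
    | succ r ih => exact ih.trans (cj (g := n) (by rw [pw nd, ← pow_mul, ← pow_succ']))
  have t4 : ∀ k < 11, k ≠ 0 → ∃ r < 11, 6 ^ r % 11 = k := by decide +kernel
  let S : Sylow 11 G := Sylow.ofCard h.P (by rw [h.card, hc])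
  have hp : IsPGroup 11 (Subgroup.zpowers w) :=
    IsPGroup.of_card (n := 1) (by rw [Nat.card_zpowers, hw, pow_one])
  obtain ⟨Q, hQ⟩ := hp.exists_le_sylow
  obtain ⟨g, rfl⟩ := MulAction.exists_smul_eq G S Q
  obtain ⟨x, ⟨i, j, k, rfl⟩, e⟩ : w ∈ h.P.map (MulAut.conj g).toMonoidHom := hQ (Subgroup.mem_zpowers w)
  have c : IsConj w (f a b d (i % 11) (j % 11) (k % 11)) := by
    rw [h.md, ← e]; exact (isConj_iff.2 ⟨g, rfl⟩).symm
  by_cases h0 : i % 11 ≠ 0 ∨ j % 11 ≠ 0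
  · obtain ⟨l, e⟩ := t 11 _ (t2 _ (by omega) _ (by omega) h0)
    exact .inr (c.trans ((h.shift (by omega) (by omega) h0 _ _).trans e.symm))
  · push Not at h0
    rw [h0.1, h0.2, f, pow_zero, pow_zero, one_mul, one_mul] at c
    have k0 : k % 11 ≠ 0 := fun k0 => by
      rw [k0, pow_zero, isConj_one_left] at c
      rw [c, orderOf_one] at hw
      omega
    obtain ⟨r, -, e⟩ := t4 _ (by omega) k0
    rw [← e, ← pow_eq_pow_mod _ h.d11] at c
    exact .inl (c.trans (t3 r).symm)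

end H10.C11
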