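import Cfsg.Agent.H10.C11a
import Cfsg.Agent.H10.C11b

/-! `J4` has exactly two classes of elements of order 11. -/

set_option autoImplicit false

namespace H10.C11
open Cfsg Cfsg.Spor

theorem c11 : ∃ x y : J4, orderOf x = 11 ∧ orderOf y = 11 ∧ ¬ IsConj x y ∧
    ∀ w : J4, orderOf w = 11 → IsConj w x ∨ IsConj w y := by
  obtain ⟨a, b, d, m, n, a11, b11, d11, ba, da, db, nc, d1, ma, mb, md, na, nb, nd⟩ := data
  have hc : Nat.card J4 = 86775571046077562880 := H7.JD.j_main.2.1.2
  haveI : Finite J4 := Nat.finite_of_card_ne_zero (by rw [hc]; norm_num)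
  haveI : Fact (Nat.Prime 11) := ⟨by norm_num⟩
  have h : Hs a b d := ⟨a11, b11, d11, ba, da, db, d1⟩
  have a1 : a ≠ 1 := by
    rintro rfl
    exact d1 (by simpa using ba)
  refine ⟨d, a, orderOf_eq_prime d11 d1, orderOf_eq_prime a11 a1, nc,
    h.two ?_ ma mb md na nb nd⟩
  rw [hc, show (86775571046077562880 : ℕ) = 11 ^ 3 * 65195770883604480 by norm_num,
    Nat.factorization_mul (by norm_num) (by norm_num), Nat.Prime.factorization_pow (by norm_num),
    Finsupp.add_apply, Finsupp.single_eq_same,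
    Nat.factorization_eq_zero_of_not_dvd (by norm_num)]

end H10.C11
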