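import Cfsg.Agent.H10.C11

/-! Transport of the classes of elements of order 11 along an isomorphism with `J4`. -/

set_option autoImplicit false

namespace H10.C11
open Cfsg Cfsg.Spor

theorem c11' {G : Type*} [Group G] (e : G ≃* J4) : ∃ x y : G, orderOf x = 11 ∧ orderOf y = 11 ∧
    ¬ IsConj x y ∧ ∀ w : G, orderOf w = 11 → IsConj w x ∨ IsConj w y := by
  obtain ⟨x, y, hx, hy, n, h⟩ := c11
  refine ⟨e.symm x, e.symm y, (e.symm.orderOf_eq x).trans hx, (e.symm.orderOf_eq y).trans hy,
    fun c => n (by simpa using e.toMonoidHom.map_isConj c), fun w hw => ?_⟩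
  rcases h (e w) ((e.orderOf_eq w).trans hw) with c | c
  · exact .inl (by simpa using e.symm.toMonoidHom.map_isConj c)
  · exact .inr (by simpa using e.symm.toMonoidHom.map_isConj c)

theorem cardG {G : Type*} [Group G] (e : G ≃* J4) : Nat.card G = 86775571046077562880 :=
  (Nat.card_congr e.toEquiv).trans H7.JD.j_main.2.1.2

end H10.C11
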