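import Cfsg.Agent.H6.WRFus
import Cfsg.Agent.H10.Cores
import Cfsg.Agent.H1.Basic

/-! An element of order 3 normalizing the quaternion subgroup of a wreathed group of order 32. -/

set_option autoImplicit false

open Subgroup Cfsg

namespace H10.Dd

def ev (A B : QuaternionGroup 2) : QuaternionGroup 2 → QuaternionGroup 2
  | QuaternionGroup.a n => A ^ n.val
  | QuaternionGroup.xa n => B * A ^ n.val

theorem q8a : ∀ A B : QuaternionGroup 2, (∀ u v, ev A B (u * v) = ev A B u * ev A B v) →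
    (∀ w, ev A B (ev A B (ev A B w)) = w) → (∃ w, ev A B w ≠ w) → ∀ I J, I * J ≠ J * I → ∃ q,
      (q * ev A B (q⁻¹ * I * q) * q⁻¹ = J ∧ q * ev A B (q⁻¹ * J * q) * q⁻¹ = I * J) ∨
      (q * ev A B (ev A B (q⁻¹ * I * q)) * q⁻¹ = J ∧
        q * ev A B (ev A B (q⁻¹ * J * q)) * q⁻¹ = I * J) := by
  decide +kernel

theorem q8b : ∀ w, ev (QuaternionGroup.a 1) (QuaternionGroup.xa 0) w = w := by decide +kernel

theorem q8 {Q : Type*} [Group Q] (e : Q ≃* QuaternionGroup 2) (ψ : MulAut Q)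
    (h3 : ∀ w, ψ (ψ (ψ w)) = w) (hne : ∃ w, ψ w ≠ w) {I J : Q} (h : I * J ≠ J * I) : ∃ q,
      (q * ψ (q⁻¹ * I * q) * q⁻¹ = J ∧ q * ψ (q⁻¹ * J * q) * q⁻¹ = I * J) ∨
      (q * ψ (ψ (q⁻¹ * I * q)) * q⁻¹ = J ∧ q * ψ (ψ (q⁻¹ * J * q)) * q⁻¹ = I * J) := by
  have key : ∀ w, ev (e (ψ (e.symm (QuaternionGroup.a 1)))) (e (ψ (e.symm (QuaternionGroup.xa 0)))) w =
      e (ψ (e.symm w)) := fun w => by
    conv_rhs => rw [← q8b w]
    cases w <;> simp only [ev, map_mul, map_pow]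
  obtain ⟨w, hw⟩ := hne
  obtain ⟨q, hq⟩ := q8a (e (ψ (e.symm (QuaternionGroup.a 1)))) (e (ψ (e.symm (QuaternionGroup.xa 0))))
    (fun u v => by simp only [key, map_mul])
    (fun w => by simp only [key, e.symm_apply_apply, h3, e.apply_symm_apply])
    ⟨e w, by rw [key, e.symm_apply_apply]; exact fun e' => hw (e.injective e')⟩ (e I) (e J)
    (fun e' => h (e.injective (by rw [map_mul, map_mul, e'])))
  refine ⟨e.symm q, ?_⟩
  simp only [key, e.symm_apply_apply] at hq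
  simp only [← e.injective.eq_iff, map_mul, map_inv, e.apply_symm_apply]
  simpa only [map_mul, map_inv, e.symm_apply_apply] using hq

variable {G : Type*} [Group G]

theorem fin {i j x d : G} (ji : j * i * j⁻¹ = i⁻¹) (ii : i * i = j * j)
    (xi : x * i * x⁻¹ = i) (xj : x * j * x⁻¹ = i * j) (d3 : d ^ 3 = 1) (di : d * i * d⁻¹ = j)
    (dj : d * j * d⁻¹ = i * j)
    (hD : ∀ c, c * i = i * c → c * j = j * c → c ^ 4 = 1 ∧ Commute c d ∧ Commute c x) :
    x * d * x⁻¹ = i * j * d⁻¹ := by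
  have d3' : d * d * d = 1 := by rw [← d3, pow_three']
  have i4 : i * (i * (i * i)) = 1 := by
    have : j * (i * i) * j⁻¹ = i * i := by rw [ii]; group
    rw [← conj_mul, ji] at this
    rw [← mul_assoc, ← this]
    conv_lhs => enter [2]; rw [this]
    group
  have vi : i⁻¹ = i * (i * i) := inv_eq_of_mul_eq_one_right i4
  have vj : j⁻¹ = i * (i * j) :=
    inv_eq_of_mul_eq_one_left (by rw [mul_assoc, mul_assoc, ← ii, i4])
  have t3 : j * i = i * (i * (i * j)) := by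
    rw [← mul_assoc, ← mul_assoc, mul_assoc i i i, ← vi, ← ji]; group
  have R1 : ∀ w, i * (i * (i * (i * w))) = w := fun w => by
    calc _ = i * (i * (i * i)) * w := by simp only [mul_assoc]
      _ = _ := by rw [i4, one_mul]
  have R2 : ∀ w, j * (j * w) = i * (i * w) := fun w => by rw [← mul_assoc, ← ii, mul_assoc]
  have R3 : ∀ w, j * (i * w) = i * (i * (i * (j * w))) := fun w => by
    rw [← mul_assoc, t3]; simp only [mul_assoc]
  have dk : d * (i * j) * d⁻¹ = i := by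
    rw [← conj_mul, di, dj]
    simp only [mul_assoc, R1, R2, R3, ← ii, i4, t3, mul_one, one_mul]
  have e1 : d⁻¹ * i * d = i * j := by
    conv_lhs => rw [← dk]
    group
  have e2 : d⁻¹ * j * d = i := by rw [← di]; group
  have e3 : d⁻¹ * (i * j) * d = j := by rw [← dj]; group
  have a1 : x * d * x⁻¹ * i * (x * d * x⁻¹)⁻¹ = i * j := by
    calc _ = x * (d * (x⁻¹ * (x * i * x⁻¹) * x) * d⁻¹) * x⁻¹ := by rw [xi]; group
      _ = x * (d * i * d⁻¹) * x⁻¹ := by group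
      _ = _ := by rw [di, xj]
  have a2 : x * d * x⁻¹ * j * (x * d * x⁻¹)⁻¹ = i⁻¹ := by
    calc _ = x * (d * (x⁻¹ * ((x * i * x⁻¹)⁻¹ * (x * j * x⁻¹)) * x) * d⁻¹) * x⁻¹ := by
          rw [xi, xj]; group
      _ = x * ((d * i * d⁻¹)⁻¹ * (d * j * d⁻¹)) * x⁻¹ := by group
      _ = x * i⁻¹ * x⁻¹ := by
          rw [di, dj]
          simp only [mul_assoc, vi, vj, R1, R2, R3, ← ii, i4, t3, mul_one, one_mul]
      _ = (x * i * x⁻¹)⁻¹ := by group
      _ = _ := by rw [xi]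
  have b1 : i * j * d⁻¹ * i * (i * j * d⁻¹)⁻¹ = i * j := by
    calc _ = i * j * (d⁻¹ * i * d) * (i * j)⁻¹ := by group
      _ = _ := by rw [e1]; group
  have b2 : i * j * d⁻¹ * j * (i * j * d⁻¹)⁻¹ = i⁻¹ := by
    calc _ = i * (j * (d⁻¹ * j * d) * j⁻¹) * i⁻¹ := by group
      _ = _ := by rw [e2, ji]; group
  have b3 : (i * j * d⁻¹) ^ 3 = 1 := by
    calc _ = i * j * (d⁻¹ * (i * j) * d) * (d⁻¹ * (d⁻¹ * (i * j) * d) * d) * (d * d * d)⁻¹ := by
          rw [pow_three']; group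
      _ = _ := by
          rw [e3, e2, d3', inv_one, mul_one]
          simp only [mul_assoc, R1, R2, R3, ← ii, i4, t3, mul_one, one_mul]
  have a3 : (x * d * x⁻¹) ^ 3 = 1 := by rw [conj_pow, d3]; group
  generalize ha : x * d * x⁻¹ = a at *
  generalize i * j * d⁻¹ = b at *
  obtain ⟨c4, cd, cx⟩ := hD (a⁻¹ * b)
    (by calc _ = a⁻¹ * (b * i * b⁻¹) * b := by group
          _ = _ := by rw [b1, ← a1]; group)
    (by calc _ = a⁻¹ * (b * j * b⁻¹) * b := by group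
          _ = _ := by rw [b2, ← a2]; group)
  have ca : Commute (a⁻¹ * b) a := by
    conv_rhs => rw [← ha]
    exact (cx.mul_right cd).mul_right cx.inv_right
  have c3 : (a⁻¹ * b) ^ 3 = 1 := by
    have : b = a * (a⁻¹ * b) := by group
    rw [this, ca.symm.mul_pow, a3, one_mul] at b3
    exact b3
  rw [pow_succ, c3, one_mul, inv_mul_eq_one] at c4
  exact c4

variable [Finite G]

theorem dd [IsSimpleGroup G] (h : Nat.card G = 6048)
    (hs : ∀ g : G, g^7 = 1 ∨ g^8 = 1 ∨ g^12 = 1)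
    (hC : ∀ t : G, orderOf t = 2 → Nat.card (centralizer ({t} : Set G)) ∣ 96) (S : Sylow 2 G)
    {x y t : G} (w : H6.WR (S : Subgroup G) 0 x y t) :
    ∃ d : G, d^3 = 1 ∧ d*(x*y) = x*y*d ∧ d*(x*y⁻¹)*d⁻¹ = t*x*x ∧
      d*(t*x*x)*d⁻¹ = x*y⁻¹*(t*x*x) ∧ x*d*x⁻¹ = x*y⁻¹*(t*x*x)*d⁻¹ := by
  have hi : x * y⁻¹ = H6.wel x y 1 (-1) := by simp [H6.wel]
  have hx : x = H6.wel x y 1 0 := by simp [H6.wel]
  have hc : x * y = H6.wel x y 1 1 := by simp [H6.wel]
  have hj : t * x * x = H6.wel x y 0 2 * t := by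
    rw [← w.tmul, mul_assoc]; simp [H6.wel, zpow_two, pow_two]
  have he := w.quat_equiv 0
  have hQS := w.quat_le 0
  rw [pow_zero, mul_one, sub_zero, ← hi, ← hj] at he hQS
  obtain ⟨e⟩ := he
  have xi : x * (x * y⁻¹) * x⁻¹ = x * y⁻¹ := by
    rw [((Commute.refl x).mul_right w.xy.inv_right).eq, mul_inv_cancel_right]
  have xj : x * (t * x * x) * x⁻¹ = x * y⁻¹ * (t * x * x) := by
    have := w.conj_et 1 0 0 2
    rw [← hx, ← hj] at this
    rw [this, hi, hj, w.mul_t'']; norm_num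
  have ji : t * x * x * (x * y⁻¹) * (t * x * x)⁻¹ = (x * y⁻¹)⁻¹ := by
    rw [hi, hj, w.conj_e, w.inv]; norm_num
  have ii : x * y⁻¹ * (x * y⁻¹) = t * x * x * (t * x * x) := by
    rw [hi, hj, w.sq, w.mul, w.eq_iff]; norm_num
  have oz : orderOf (x * y⁻¹ * (x * y⁻¹)) = 2 := by
    have := w.ord_z
    rw [ii, hj, w.sq]
    simpa using this
  have zc : x * y⁻¹ * (x * y⁻¹) ∈ zpowers (H6.wel x y 1 1) := by
    rw [ii, hj, w.sq]; exact w.diag_mem_Z _
  have c4 : H6.wel x y 1 1 ^ 4 = 1 := by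
    rw [← zpow_natCast, w.zpow, w.eq_one_iff]; norm_num
  have xS : x ∈ (S : Subgroup G) := hx ▸ w.eS 1 0
  have h96 := hC _ oz
  rw [hc]
  generalize x * y⁻¹ = i at *
  generalize t * x * x = j at *
  set Q : Subgroup G := closure {i, j} with hQ
  have iQ : i ∈ Q := subset_closure (by simp)
  have jQ : j ∈ Q := subset_closure (by simp)
  obtain ⟨g, gN, go, gC, gZ⟩ := w.exists_odd_Q e hQS fun hn => by
    obtain ⟨K, hK, -, hK2⟩ := w.exists_K_U e hQS hn
    rcases hK.eq_bot_or_eq_top with rfl | rfl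
    · rw [index_bot, h] at hK2; omega
    · rw [index_top] at hK2; omega
  have gz : g ∈ centralizer ({i * i} : Set G) := mem_centralizer_singleton_iff.2 (gZ _ zc).symm
  have g3 : orderOf g = 3 := by
    have h1 : orderOf g ∣ 2 ^ 5 * 3 := (Subgroup.orderOf_dvd_natCard _ gz).trans h96
    have h2 : orderOf g ∣ 3 :=
      ((Nat.coprime_two_right.2 go).pow_right 5).dvd_of_dvd_mul_left h1
    refine ((Nat.dvd_prime Nat.prime_three).1 h2).resolve_left fun e1 => gC ?_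
    rw [orderOf_eq_one_iff.1 e1]; exact one_mem _
  have ggg : g ^ 3 = 1 := g3 ▸ pow_orderOf_eq_one g
  have hD : CC(Q) ≤ zpowers (H6.wel x y 1 1) := by
    have h1 : CC(Q) ≤ centralizer ({i * i} : Set G) := fun c hc =>
      mem_centralizer_singleton_iff.2 (hc _ (mul_mem iQ iQ)).symm
    have h2 : zpowers g ⊓ CC(Q) = ⊥ := by
      haveI : Fact (Nat.card (zpowers g)).Prime := ⟨by rw [Nat.card_zpowers, g3]; norm_num⟩
      refine ((((zpowers g ⊓ CC(Q)).subgroupOf (zpowers g)).eq_bot_or_eq_top_of_prime_card).imp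
        (fun e1 => ?_) fun e1 => ?_).resolve_right id
      · rwa [subgroupOf_eq_bot, disjoint_iff, inf_eq_left.2 inf_le_left] at e1
      · exact gC (subgroupOf_eq_top.1 e1 (mem_zpowers g)).2
    have h3 := H1.card_sup_of_disjoint (le_NN_CC (zpowers_le.2 gN)) h2
    have h4 := (card_dvd_of_le (sup_le (zpowers_le.2 gz) h1)).trans h96
    rw [h3, Nat.card_zpowers, g3] at h4
    have h5 : Nat.card CC(Q) ∣ 2 ^ 5 := Nat.dvd_of_mul_dvd_mul_left (by norm_num : 0 < 3) h4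
    obtain ⟨n, -, hn⟩ := (Nat.dvd_prime_pow Nat.prime_two).1 h5
    have hSQ : (S : Subgroup G) ≤ NN(Q) := by
      rw [eq_of_le_of_card_ge (w.quat_le_Y e hQS) (by
        rw [w.card_Y, Nat.card_congr e.toEquiv, Nat.card_eq_fintype_card, QuaternionGroup.card]
        norm_num)]
      exact le_NN_iff.2 fun s hs a ha => w.conj_mem_Y hs ha
    have h6 : CC(Q) ≤ S := (isSylowIn_top S).le_of_NN (IsPGroup.of_card hn) le_top (le_NN_CC hSQ)
    exact fun c hc => w.V_cent e hQS (h6 hc) hc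
  let ψ : MulAut Q := Q.normalizerMonoidHom ⟨g, gN⟩
  have hψ : ∀ q : Q, (ψ q : G) = g * q * g⁻¹ := fun q => rfl
  obtain ⟨d, d3, dz, di, dj⟩ : ∃ d : G, d ^ 3 = 1 ∧ Commute d (H6.wel x y 1 1) ∧ d * i * d⁻¹ = j ∧
      d * j * d⁻¹ = i * j := by
    have gc : Commute g (H6.wel x y 1 1) := (gZ _ (mem_zpowers _)).symm
    obtain ⟨q, hq⟩ := q8 e ψ (fun q => Subtype.ext (by
        rw [hψ, hψ, hψ]
        calc _ = g ^ 3 * q * (g ^ 3)⁻¹ := by rw [pow_three']; group
          _ = _ := by rw [ggg]; simp))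
      (by
        by_contra hh
        push Not at hh
        exact gC fun q hq => (mul_inv_eq_iff_eq_mul.1 (congrArg Subtype.val (hh ⟨q, hq⟩))).symm)
      (I := ⟨i, iQ⟩) (J := ⟨j, jQ⟩) (fun e1 => by
        have e2 : i * j = j * i := congrArg Subtype.val e1
        rw [← e2, mul_inv_cancel_right] at ji
        rw [mul_eq_one_iff_eq_inv.2 ji, orderOf_one] at oz
        omega)
    have qc : Commute (q : G) (H6.wel x y 1 1) := w.Z_comm (hQS q.2) (mem_zpowers _)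
    rcases hq with ⟨h1, h2⟩ | ⟨h1, h2⟩
    · have h1' : (q : G) * (g * ((q : G)⁻¹ * i * q) * g⁻¹) * (q : G)⁻¹ = j := congrArg Subtype.val h1
      have h2' : (q : G) * (g * ((q : G)⁻¹ * j * q) * g⁻¹) * (q : G)⁻¹ = i * j :=
        congrArg Subtype.val h2
      exact ⟨q * g * (q : G)⁻¹, by rw [conj_pow, ggg]; simp, (qc.mul_left gc).mul_left qc.inv_left,
        by rw [← h1']; group, by rw [← h2']; group⟩
    · have h1' : (q : G) * (g * (g * ((q : G)⁻¹ * i * q) * g⁻¹) * g⁻¹) * (q : G)⁻¹ = j :=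
        congrArg Subtype.val h1
      have h2' : (q : G) * (g * (g * ((q : G)⁻¹ * j * q) * g⁻¹) * g⁻¹) * (q : G)⁻¹ = i * j :=
        congrArg Subtype.val h2
      exact ⟨q * (g * g) * (q : G)⁻¹, by rw [conj_pow, (Commute.refl g).mul_pow, ggg]; simp,
        (qc.mul_left (gc.mul_left gc)).mul_left qc.inv_left,
        by rw [← h1']; group, by rw [← h2']; group⟩
  refine ⟨d, d3, dz, di, dj, fin ji ii xi xj d3 di dj fun c c1 c2 => ?_⟩
  obtain ⟨n, rfl⟩ : c ∈ zpowers (H6.wel x y 1 1) := hD (le_CC_symm (K := zpowers c) (by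
    rw [hQ, closure_le, CC_zpowers]
    rintro _ (rfl | rfl)
    · exact mem_centralizer_singleton_iff.2 c1.symm
    · exact mem_centralizer_singleton_iff.2 c2.symm) (mem_zpowers c))
  refine ⟨?_, dz.symm.zpow_left n, (w.Z_comm xS (mem_zpowers _)).symm.zpow_left n⟩
  simp only
  rw [← zpow_natCast, ← zpow_mul, mul_comm, zpow_mul, zpow_natCast, c4, one_zpow]

end H10.Dd
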