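import Cfsg.Agent.H1.Sympl
import Cfsg.Agent.H6.Q8
import Cfsg.Agent.H6.Misc
import Cfsg.Agent.H11.CharP

/-!
Involutions `z` with `F*(C(z))` of symplectic type and exponent four.
-/

set_option autoImplicit false
set_option linter.unusedSectionVars false

namespace H10

open Cfsg Subgroup
open scoped commutatorElement

variable {G : Type*} [Group G] [Finite G] {z t : G} {Q P : Subgroup G}

/-- `Q = F*(C(z))` is a `2`-group with `Φ(Q) ≤ ⟨z⟩ = Ω₁(Z(Q))` -/
structure LSy (z : G) (Q : Subgroup G) : Prop where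
  ord : orderOf z = 2
  mem : z ∈ Q
  le : Q ≤ centralizer {z}
  nrm : centralizer {z} ≤ normalizer (Q : Set G)
  two : IsPGroup 2 Q
  sq : ∀ q ∈ Q, q * q ∈ zpowers z
  cen : ∀ t ∈ Q, t * t = 1 → t ∈ centralizer (Q : Set G) → t ∈ zpowers z
  cc : centralizer {z} ⊓ centralizer (Q : Set G) ≤ Q
  core : ∀ K : Subgroup G, K ≤ centralizer {z} → centralizer {z} ≤ normalizer (K : Set G) →
    IsPGroup 2 K → K ≤ Q

theorem ls_of_sympl (hz : orderOf z = 2)
    (h : IsOfSymplecticType (generalizedFittingSubgroup (centralizer ({z} : Set G))))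
    (h4 : ∀ q ∈ H5.fstarOf (centralizer ({z} : Set G)), q ^ 4 = 1) :
    LSy z (H5.fstarOf (centralizer {z})) where
  ord := hz
  mem := H1.mem_fstarOf_centralizer z
  le := H5.fstarOf_le _
  nrm := H5.self_le_normalizer_fstarOf _
  two := H1.isPGroup_of_sympl h
  sq q hq := by
    rw [← pow_two]
    exact H1.sympl_mem_zpowers hz h (by rw [← pow_mul]; exact h4 q hq) (pow_mem hq 2)
      (H1.sympl_sq_mem_CC (H1.sympl_fstarOf h) h4 hq)
  cen t h1 h2 h3 := H1.sympl_mem_zpowers hz h (by rwa [pow_two]) h1 h3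
  cc := H5.inf_centralizer_fstarOf_le _
  core K h1 h2 h3 := (H5.le_opOf h1 h2 h3).trans (H5.opOf_le_fstarOf 2 _)

namespace LSy

variable (h : LSy z Q)
include h

theorem zz : z * z = 1 := H6.ord2_mul_self h.ord

theorem mz {x : G} : x ∈ zpowers z ↔ x = 1 ∨ x = z := H6.mem_zpowers_ord2 h.zz

theorem cz {q : G} (hq : q ∈ Q) : q * z = z * q := H6.mem_cent_singleton.1 (h.le hq)

theorem comm {a b : G} (ha : a ∈ Q) (hb : b ∈ Q) : ⁅a, b⁆ ∈ zpowers z := by
  have : ⁅a, b⁆ = a * a * (a⁻¹ * b * (a⁻¹ * b)) * (b * b)⁻¹ := by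
    rw [commutatorElement_def]; group
  rw [this]
  exact mul_mem (mul_mem (h.sq a ha) (h.sq _ (mul_mem (inv_mem ha) hb))) (inv_mem (h.sq b hb))

theorem conj {a b : G} (ha : a ∈ Q) (hb : b ∈ Q) (hn : a * b ≠ b * a) : a * b * a⁻¹ = z * b := by
  rcases h.mz.1 (h.comm ha hb) with e | e
  · exact absurd (commutatorElement_eq_one_iff_mul_comm.1 e) hn
  · rw [← e, commutatorElement_def]; group

theorem nz : centralizer {z} ≤ normalizer (zpowers z : Set G) := by
  refine le_trans ?_ (centralizer_le_normalizer _)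
  rw [zpowers_eq_closure, centralizer_closure]

theorem odd {c : G} (hc : c ∈ centralizer {z}) (ho : (orderOf c).Coprime 2)
    (hQ : c ∈ centralizer (Q : Set G)) : c = 1 :=
  H11.eq_one_of_mem_of_coprime h.two (h.cc ⟨hc, hQ⟩) ho

theorem mem_of_cent {c : G} (hc : c ∈ centralizer {z}) (hq : ∀ q ∈ Q, ⁅c, q⁆ ∈ zpowers z) :
    c ∈ Q := by
  refine h.core (centralizer {z} ⊓ H5.centMod Q (zpowers z)) inf_le_left ?_ ?_ ⟨hc, h.nz hc, hq⟩
  · refine H1.le_normalizer_inf le_normalizer fun g hg => mem_normalizer_fintype fun x hx => ?_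
    refine ⟨mul_mem (mul_mem (h.nz hg) hx.1) (inv_mem (h.nz hg)),
      fun q hq => ?_⟩
    have h1 : g⁻¹ * q * g ∈ Q := (mem_normalizer_iff''.1 (h.nrm hg) q).1 hq
    have := (mem_normalizer_iff.1 (h.nz hg) _).1 (hx.2 _ h1)
    convert this using 1
    simp only [commutatorElement_def]; group
  · refine H11.isPGroup_of_forall_coprime fun c hc ho => h.odd hc.1 ho ?_
    refine H11.mem_centralizer_of_commutator_le (R := zpowers z)
      (H6.isPGroup_zpowers_ord2 h.zz) ho (fun q hq => ?_) ?_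
    · have := (mem_normalizer_iff''.1 (h.nz (h.le hq)) _).1 (hc.2.2 q hq)
      convert this using 1
      simp only [commutatorElement_def]; group
    · rw [zpowers_eq_closure, centralizer_closure]; exact hc.1

theorem exists_nc (ht : t ∈ Q) (h2 : orderOf t = 2) (hne : t ≠ z) : ∃ q ∈ Q, q * t ≠ t * q := by
  by_contra hh
  push Not at hh
  rcases h.mz.1 (h.cen t ht (H6.ord2_mul_self h2) hh) with e | e
  · exact H6.ord2_ne_one h2 e
  · exact hne e

theorem split {q₀ q : G} (ht : t ∈ Q) (h0 : q₀ ∈ Q) (hn : q₀ * t ≠ t * q₀) (hq : q ∈ Q) :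
    q * t = t * q ∨ q₀⁻¹ * q * t = t * (q₀⁻¹ * q) := by
  by_cases e : q * t = t * q
  · exact Or.inl e
  right
  have h1 := h.conj hq ht e
  rw [← h.conj h0 ht hn] at h1
  calc q₀⁻¹ * q * t = q₀⁻¹ * (q * t * q⁻¹) * q := by group
    _ = _ := by rw [h1]; group

/-- the involutions of the centre of `C_Q(t)` -/
theorem key {d : G} (ht : t ∈ Q) (h2 : orderOf t = 2) (hne : t ≠ z) (hd : d ∈ Q) (hd2 : d * d = 1)
    (hdt : d * t = t * d) (hR : ∀ r ∈ Q, r * t = t * r → r * d = d * r) :
    d ∈ zpowers z ∨ d * t ∈ zpowers z := by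
  obtain ⟨q₀, h0, hn⟩ := h.exists_nc ht h2 hne
  have aux : ∀ e ∈ Q, e * e = 1 → (∀ r ∈ Q, r * t = t * r → r * e = e * r) → q₀ * e = e * q₀ →
      e ∈ zpowers z := by
    intro e he he2 h1 h3
    refine h.cen e he he2 fun q hq => ?_
    rcases h.split ht h0 hn hq with a | a
    · exact h1 q hq a
    · have := h1 _ (mul_mem (inv_mem h0) hq) a
      calc q * e = q₀ * (q₀⁻¹ * q * e) := by group
        _ = q₀ * e * (q₀⁻¹ * q) := by rw [this]; group
        _ = _ := by rw [h3]; group
  by_cases e : q₀ * d = d * q₀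
  · exact Or.inl (aux d hd hd2 hR e)
  right
  refine aux _ (mul_mem hd ht) ?_ (fun r hr a => ?_) ?_
  · calc d * t * (d * t) = d * (t * d) * t := by group
      _ = d * d * (t * t) := by rw [← hdt]; group
      _ = 1 := by rw [hd2, H6.ord2_mul_self h2, one_mul]
  · rw [← mul_assoc, hR r hr a, mul_assoc, a, mul_assoc]
  · calc q₀ * (d * t) = (q₀ * d * q₀⁻¹) * (q₀ * t * q₀⁻¹) * q₀ := by group
      _ = z * (d * z) * t * q₀ := by rw [h.conj h0 hd e, h.conj h0 ht hn]; group
      _ = z * z * d * t * q₀ := by rw [h.cz hd]; group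
      _ = _ := by rw [h.zz, one_mul]

theorem two_of_small (ht : t ∈ Q) (h2 : orderOf t = 2) (hne : t ≠ z)
    (hR : ∀ r ∈ Q, r * t = t * r → r * r = 1) : IsPGroup 2 (centralizer ({z} : Set G)) := by
  have htt := H6.ord2_mul_self h2
  have hR' : ∀ r ∈ Q, r * t = t * r → r ∈ zpowers z ∨ r * t ∈ zpowers z := by
    intro r hr a
    refine h.key ht h2 hne hr (hR r hr a) a fun s hs b => ?_
    have h1 := hR _ (mul_mem hs hr) (by rw [mul_assoc, a, ← mul_assoc, b, mul_assoc])
    calc s * r = (s * r)⁻¹ := eq_inv_of_mul_eq_one_left h1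
      _ = r * s := by
        rw [mul_inv_rev, ← eq_inv_of_mul_eq_one_left (hR r hr a),
          ← eq_inv_of_mul_eq_one_left (hR s hs b)]
  obtain ⟨y, hy, hn, hyy⟩ : ∃ y ∈ Q, y * t ≠ t * y ∧ y * y = z := by
    obtain ⟨q, hq, hn⟩ := h.exists_nc ht h2 hne
    rcases h.mz.1 (h.sq q hq) with e | e
    · refine ⟨q * t, mul_mem hq ht, fun a => hn (mul_right_cancel (a.trans (mul_assoc _ _ _).symm)), ?_⟩
      calc q * t * (q * t) = q * t * q⁻¹ * (q * q) * t := by group
        _ = z := by rw [h.conj hq ht hn, e, mul_one, mul_assoc, htt, mul_one]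
    · exact ⟨q, hq, hn, e⟩
  have hzy : zpowers z ≤ zpowers y := by
    rw [zpowers_le, ← hyy]; exact mul_mem (mem_zpowers y) (mem_zpowers y)
  have hyz : ∀ r ∈ zpowers z, y * r = r * y := fun r hr => by
    rcases h.mz.1 hr with rfl | rfl
    · simp
    · exact h.cz hy
  have hC : ∀ r ∈ Q, r * t = t * r → y * r = r * y → r ∈ zpowers z := by
    intro r hr a b
    refine (hR' r hr a).resolve_right fun e => hn ?_
    have := hyz _ e
    rw [← mul_assoc, b, mul_assoc, mul_assoc] at this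
    exact mul_left_cancel this
  refine H11.isPGroup_of_forall_coprime fun c hc ho => h.odd hc ho ?_
  have hcz : c * z = z * c := H6.mem_cent_singleton.1 hc
  have hcy : c * y = y * c := by
    have h1 : c * y * c⁻¹ ∈ Q := (mem_normalizer_iff.1 (h.nrm hc) y).1 hy
    have h3 : c * y * c⁻¹ * (c * y * c⁻¹) = z := by
      calc _ = c * (y * y) * c⁻¹ := by group
        _ = z := by rw [hyy, hcz]; group
    have h4 : y⁻¹ * (c * y * c⁻¹) ∈ zpowers z := by
      generalize c * y * c⁻¹ = w at h1 h3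
      rcases h.split ht hy hn h1 with a | a
      · exact absurd ((hR w h1 a).symm.trans h3).symm (H6.ord2_ne_one h.ord)
      · refine (hR' _ (mul_mem (inv_mem hy) h1) a).resolve_right fun e => ?_
        obtain ⟨r, hr, e⟩ : ∃ r ∈ zpowers z, w = y * r * t :=
          ⟨_, e, by rw [mul_assoc, mul_assoc _ t, htt]; group⟩
        have hrt : t * r = r * t := by
          rcases h.mz.1 hr with rfl | rfl
          · simp
          · exact h.cz ht
        have hrr : r * r = 1 := by
          rcases h.mz.1 hr with rfl | rfl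
          · simp
          · exact h.zz
        apply H6.ord2_ne_one h.ord
        rw [← h3, e]
        calc y * r * t * (y * r * t) = r * y * t * (y * r * t) := by rw [← hyz r hr]
          _ = r * (y * t * y⁻¹) * (y * y) * r * t := by group
          _ = r * z * (t * z) * r * t := by rw [h.conj hy ht hn, hyy]; group
          _ = r * (z * z) * (t * r) * t := by rw [h.cz ht]; group
          _ = r * r * (t * t) := by rw [h.zz, hrt]; group
          _ = 1 := by rw [hrr, htt, one_mul]
    refine H11.comm_of_coprime_of_commutator (p := 2) (k := 1) ho ?_ ?_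
    · rcases h.mz.1 h4 with e | e <;> rw [e]
      · simp
      · rw [pow_one, pow_two, h.zz]
    · rcases h.mz.1 h4 with e | e <;> rw [e]
      · simp
      · exact hcz
  refine H11.mem_centralizer_of_selfCentralizing (C := zpowers y) h.two (zpowers_le.2 hy) ?_ ho
    (h.nrm hc) ?_
  · rintro q ⟨hq, hqy⟩
    have b : y * q = q * y := hqy y (mem_zpowers y)
    rcases h.split ht hy hn hq with a | a
    · exact hzy (hC q hq a b)
    · have := hzy (hC _ (mul_mem (inv_mem hy) hq) a (by rw [mul_assoc, ← b]; group))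
      simpa using mul_mem (mem_zpowers y) this
  · rw [zpowers_eq_closure, centralizer_closure]
    exact H6.mem_cent_singleton.2 hcy

theorem mem_other (h' : LSy t P) (ht : t ∈ Q) (hne : t ≠ z) (hx : ∀ x ∈ P, x * z * x⁻¹ ≠ t * z)
    (h2 : IsPGroup 2 (centralizer ({z} : Set G)) → IsPGroup 2 (centralizer ({t} : Set G))) :
    z ∈ P := by
  by_contra hz
  have hzt : z ∈ centralizer ({t} : Set G) := H6.mem_cent_singleton.2 (h.cz ht).symm
  have hz1 : ∀ x ∈ zpowers z, x ∈ P → x = 1 := fun x hx hP =>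
    (h.mz.1 hx).resolve_right fun e => hz (e ▸ hP)
  have fU : ∀ x ∈ P, ⁅x, z⁆ ∈ zpowers t → x ∈ centralizer ({z} : Set G) := by
    intro x hP hc
    rcases h'.mz.1 hc with e | e
    · exact H6.mem_cent_singleton.2 (commutatorElement_eq_one_iff_mul_comm.1 e)
    · refine absurd ?_ (hx x hP)
      rw [← e, commutatorElement_def]; group
  set R := Q ⊓ centralizer ({t} : Set G) with hR
  set U := P ⊓ centralizer ({z} : Set G) with hU
  have hRP : R ≤ normalizer (P : Set G) := inf_le_right.trans h'.nrm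
  have fD : Q ⊓ P ≤ zpowers t := by
    rintro d ⟨hd, hdP⟩
    rcases h.key ht h'.ord hne hd (hz1 _ (h.sq d hd) (mul_mem hdP hdP)) (h'.cz hdP)
      (fun r hr a => commutatorElement_eq_one_iff_mul_comm.1 (hz1 _ (h.comm hr hd)
        (mul_mem ((mem_normalizer_iff.1 (h'.nrm (H6.mem_cent_singleton.2 a)) d).1 hdP)
          (inv_mem hdP)))) with e | e
    · rw [hz1 d e hdP]; exact one_mem _
    · rw [eq_inv_of_mul_eq_one_left (hz1 _ e (mul_mem hdP h'.mem))]
      exact inv_mem (mem_zpowers t)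
  have fUR : ⁅U, R⁆ ≤ zpowers t := by
    refine le_trans (le_inf ?_ ?_) fD
    · exact (commutator_mono (inf_le_right.trans h.nrm) inf_le_left).trans
        (le_normalizer_iff_commutator_le_right.1 le_rfl)
    · exact (commutator_mono inf_le_left hRP).trans
        (le_normalizer_iff_commutator_le_left.1 le_rfl)
  have fPz : ⁅P, zpowers z⁆ ≤ U := by
    rw [commutator_le]
    intro x hP w hw
    rcases h.mz.1 hw with rfl | rfl
    · simp
    have he : ⁅x, w⁆ ∈ P := by
      rw [← commutatorElement_inv]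
      exact inv_mem (mul_mem ((mem_normalizer_iff.1 (h'.nrm hzt) x).1 hP) (inv_mem hP))
    refine ⟨he, fU _ he ?_⟩
    have : ⁅⁅x, w⁆, w⁆ = ⁅x, w⁆ * ⁅x, w⁆ := by
      simp only [commutatorElement_def, mul_inv_rev, inv_inv, H6.ord2_inv h.ord]
      simp only [mul_assoc, H6.ord2_mul_mul h.ord, h.zz, mul_one]
    rw [this]
    exact h'.sq _ he
  have fRP : ⁅R, P⁆ ≤ U := by
    have a : ⁅⁅R, P⁆, zpowers z⁆ ≤ zpowers t := by
      refine H5.three_subgroups_mod (inf_le_right.trans h'.nz) (h'.le.trans h'.nz)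
        ((zpowers_le.2 hzt).trans h'.nz) ((commutator_mono fPz le_rfl).trans fUR) ?_
      have : ⁅zpowers z, R⁆ = ⊥ := by
        rw [commutator_eq_bot_iff_le_centralizer, zpowers_le]
        exact fun r hr => h.cz hr.1
      rw [this]; simp
    have b : ⁅R, P⁆ ≤ P := le_normalizer_iff_commutator_le_right.1 hRP
    exact fun x hx => ⟨b hx, fU x (b hx) (a (commutator_mem_commutator hx (mem_zpowers z)))⟩
  apply hz
  by_cases hs : ∃ r ∈ R, r * r = z
  · obtain ⟨r, hr, e⟩ := hs
    refine h'.mem_of_cent hzt fun x hx => ?_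
    have hc : ⁅r, x⁆ ∈ U := fRP (commutator_mem_commutator hr hx)
    have : ⁅z, x⁆ = ⁅⁅r, x⁆, r⁆⁻¹ * (⁅r, x⁆ * ⁅r, x⁆) := by
      rw [← e]; simp only [commutatorElement_def, mul_inv_rev, inv_inv, mul_assoc,
        inv_mul_cancel_left, mul_inv_cancel_left]
    rw [this]
    exact mul_mem (inv_mem (fUR (commutator_mem_commutator hc hr))) (h'.sq _ hc.1)
  · push Not at hs
    refine h'.core _ le_rfl le_normalizer (h2 (h.two_of_small ht h'.ord hne fun r hr a => ?_)) hzt
    exact (h.mz.1 (h.sq r hr)).resolve_right (hs r ⟨hr, H6.mem_cent_singleton.2 a⟩)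

end LSy

end H10
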