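import Cfsg.Agent.H10.C11b
import Cfsg.Agent.H13.Ess3

/-! The normalizer of an extraspecial Sylow 11-subgroup. -/

set_option autoImplicit false
set_option maxRecDepth 100000

namespace H10.C11
open Subgroup Matrix

variable {G : Type*} [Group G]

abbrev A3 := GL (Fin 2) (ZMod 3)
def t0 (i : ℕ) : ℕ := [1, 3, 5, 0, 8, 10, 12, 14, 16, 18, 2, 20, 22, 24, 26, 28, 4, 30, 32, 34, 36, 38, 6, 40, 42, 35, 7, 39, 41, 44, 43, 21, 9, 23, 46, 45, 11, 29, 31, 47, 33, 15, 13, 17, 37, 25, 19, 27].getD i 0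
def t1 (i : ℕ) : ℕ := [2, 4, 6, 7, 9, 11, 13, 15, 17, 19, 1, 21, 23, 25, 27, 29, 3, 31, 33, 35, 37, 39, 5, 41, 43, 34, 0, 38, 40, 45, 42, 20, 8, 22, 47, 44, 10, 28, 30, 46, 32, 14, 12, 16, 36, 24, 18, 26].getD i 0
def tup (i : ℕ) : ZMod 3 × ZMod 3 × ZMod 3 × ZMod 3 := [(1, 0, 0, 1), (0, 1, 2, 2), (0, 1, 1, 1), (2, 2, 1, 0), (1, 1, 2, 1), (2, 2, 2, 0), (1, 1, 1, 2), (2, 1, 0, 1), (2, 0, 2, 1), (1, 2, 1, 0), (1, 0, 0, 2), (2, 1, 0, 2), (2, 0, 1, 2), (1, 2, 2, 0), (2, 1, 2, 2), (1, 0, 1, 1), (0, 2, 2, 1), (0, 2, 1, 0), (1, 2, 0, 1), (2, 0, 0, 1), (2, 1, 1, 1), (1, 0, 2, 2), (0, 2, 1, 2), (0, 2, 2, 0), (1, 2, 0, 2), (2, 0, 0, 2), (2, 1, 1, 0), (1, 0, 2, 1), (0, 1, 2, 0), (0, 1, 1, 2), (1, 1, 0, 1), (2, 2, 0, 1), (1, 2, 2, 2), (2, 0, 1, 1), (0, 2, 2, 2), (0, 2, 1, 1), (2, 1, 2, 0), (1, 0, 1, 2), (0, 1, 1, 0), (0, 1, 2, 1), (1, 1, 0, 2), (2, 2, 0, 2), (1, 2, 1, 1), (2, 0, 2, 2), (2, 2, 1, 2), (1, 1, 2, 0), (1, 1, 1, 0),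 (2, 2, 2, 1)].getD i 0
def mat (v : ZMod 3 × ZMod 3 × ZMod 3 × ZMod 3) : Matrix (Fin 2) (Fin 2) (ZMod 3) :=
  !![v.1, v.2.1; v.2.2.1, v.2.2.2]
def g0 : A3 := ⟨!![0, 1; 2, 2], !![2, 2; 1, 0], by decide +kernel, by decide +kernel⟩
def g1 : A3 := ⟨!![0, 1; 1, 1], !![2, 1; 1, 0], by decide +kernel, by decide +kernel⟩

theorem gl {s q : G} (ev : ℕ → G) (e0 : ev 0 = 1) (h0 : ∀ i < 48, ev i * s = ev (t0 i))
    (h1 : ∀ i < 48, ev i * q = ev (t1 i)) (hn : ∀ i < 48, ev i = 1 → i = 0) (s3 : s ^ 3 = 1)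
    (q8 : q ^ 8 = 1) {N : Subgroup G} (hs : s ∈ N) (hq : q ∈ N) :
    ∃ F : A3 →* G, Function.Injective F ∧ ∀ x, F x ∈ N := by
  let Γ : Subgroup (A3 × G) := closure {(g0, s), (g1, q)}
  have k0 : ∀ i < 48, t0 i < 48 ∧ mat (tup i) * g0.1 = mat (tup (t0 i)) := by decide +kernel
  have k1 : ∀ i < 48, t1 i < 48 ∧ mat (tup i) * g1.1 = mat (tup (t1 i)) := by decide +kernel
  have m0 : (1 : A3).1 = mat (tup 0) := by decide +kernel
  have m3 : g0 ^ 3 = 1 := Units.ext (by decide +kernel)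
  have m8 : g1 ^ 8 = 1 := Units.ext (by decide +kernel)
  have st : ∀ x : A3 × G, ∀ y ∈ ({(g0, s), (g1, q)} : Set (A3 × G)),
      (∃ i < 48, x.1.1 = mat (tup i) ∧ x.2 = ev i) →
      ∃ i < 48, (x * y).1.1 = mat (tup i) ∧ (x * y).2 = ev i := by
    rintro x _ (rfl | rfl) ⟨i, hi, e1, e2⟩
    · exact ⟨_, (k0 i hi).1, by rw [← (k0 i hi).2, ← e1]; rfl, by rw [← h0 i hi, ← e2]; rfl⟩
    · exact ⟨_, (k1 i hi).1, by rw [← (k1 i hi).2, ← e1]; rfl, by rw [← h1 i hi, ← e2]; rfl⟩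
  have hΓ : ∀ x ∈ Γ, ∃ i < 48, x.1.1 = mat (tup i) ∧ x.2 = ev i := by
    intro x hx
    induction hx using closure_induction_right with
    | one => exact ⟨0, by omega, m0, e0.symm⟩
    | mul_right x _ y hy h => exact st x y hy h
    | mul_inv_cancel x _ y hy h =>
      have p : ∀ n : ℕ, ∃ i < 48, (x * y ^ n).1.1 = mat (tup i) ∧ (x * y ^ n).2 = ev i := fun n => by
        induction n with
        | zero => simpa using h
        | succ n ih => rw [pow_succ, ← mul_assoc]; exact st _ y hy ih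
      rcases hy with rfl | rfl
      · have : (g0, s)⁻¹ = (g0, s) ^ 2 := inv_eq_of_mul_eq_one_right (by
          rw [← pow_succ']; exact Prod.ext m3 s3)
        rw [this]; exact p 2
      · have : (g1, q)⁻¹ = (g1, q) ^ 7 := inv_eq_of_mul_eq_one_right (by
          rw [← pow_succ']; exact Prod.ext m8 q8)
        rw [this]; exact p 7
  have ex : ∀ i < 48, ∃ x ∈ Γ, x.1.1 = mat (tup i) := by
    intro i
    induction i using Nat.strong_induction_on with
    | _ i ih =>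
      intro hi
      have : ∀ i < 48, i = 0 ∨ ∃ j < i, t0 j = i ∨ t1 j = i := by decide +kernel
      rcases this i hi with rfl | ⟨j, hj, e | e⟩
      · exact ⟨1, one_mem _, m0⟩
      · obtain ⟨x, hx, e1⟩ := ih j hj (by omega)
        exact ⟨x * (g0, s), mul_mem hx (subset_closure (by simp)),
          by rw [← e, ← (k0 j (by omega)).2, ← e1]; rfl⟩
      · obtain ⟨x, hx, e1⟩ := ih j hj (by omega)
        exact ⟨x * (g1, q), mul_mem hx (subset_closure (by simp)),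
          by rw [← e, ← (k1 j (by omega)).2, ← e1]; rfl⟩
  have bij : Function.Bijective ((MonoidHom.fst A3 G).comp Γ.subtype) := by
    refine ⟨(injective_iff_map_eq_one _).2 fun x hx => ?_, fun g => ?_⟩
    · obtain ⟨i, hi, e1, e2⟩ := hΓ x.1 x.2
      have hx' : x.1.1 = 1 := hx
      have : ∀ i < 48, (1 : Matrix (Fin 2) (Fin 2) (ZMod 3)) = mat (tup i) → i = 0 := by
        decide +kernel
      rw [this i hi (by rw [← e1, hx']; rfl), e0] at e2
      exact Subtype.ext (Prod.ext hx' e2)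
    · have : ∀ a b c d : ZMod 3, a * d - b * c ≠ 0 → ∃ i < 48, tup i = (a, b, c, d) := by
        decide +kernel
      obtain ⟨i, hi, e⟩ := this (g.1 0 0) (g.1 0 1) (g.1 1 0) (g.1 1 1) (by
        rw [← Matrix.det_fin_two]; exact ((Matrix.isUnit_iff_isUnit_det _).1 g.isUnit).ne_zero)
      obtain ⟨x, hx, e1⟩ := ex i hi
      refine ⟨⟨x, hx⟩, Units.ext (e1.trans ?_)⟩
      rw [e, mat, ← Matrix.eta_fin_two]
  let E := MulEquiv.ofBijective _ bij
  refine ⟨((MonoidHom.snd A3 G).comp Γ.subtype).comp E.symm.toMonoidHom, ?_, fun x => ?_⟩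
  · suffices hh : Function.Injective ((MonoidHom.snd A3 G).comp Γ.subtype) from
      fun x y e => E.symm.injective (hh e)
    refine (injective_iff_map_eq_one _).2 fun x hx => ?_
    obtain ⟨i, hi, e1, e2⟩ := hΓ x.1 x.2
    have hx' : x.1.2 = 1 := hx
    rw [hn i hi (e2.symm.trans hx')] at e1
    exact Subtype.ext (Prod.ext (Units.ext (e1.trans m0.symm)) hx')
  · have : Γ ≤ N.comap (MonoidHom.snd A3 G) := (closure_le _).2 (by
      rintro _ (rfl | rfl)
      exacts [hs, hq])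
    exact this (E.symm x).2

variable {a b d : G}

theorem Hs.pow' (h : Hs a b d) (i j k n : ℕ) :
    f a b d i j k ^ n = f a b d (i * n) (j * n) (i * j * n.choose 2 + k * n) := by
  induction n with
  | zero => simp [f]
  | succ n ih =>
    rw [pow_succ, ih, h.mul, Nat.choose_succ_succ' n 1, Nat.choose_one_right]
    congr 1 <;> ring

theorem Hs.exp (h : Hs a b d) {x : G} (hx : x ∈ h.P) : x ^ 11 = 1 := by
  obtain ⟨i, j, k, rfl⟩ := hx
  rw [h.pow', ← h.md, show Nat.choose 11 2 = 55 by decide, show i * 11 % 11 = 0 by omega,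
    show j * 11 % 11 = 0 by omega, show (i * j * 55 + k * 11) % 11 = 0 by omega]
  simp [f]

theorem Hs.aP (h : Hs a b d) : a ∈ h.P := ⟨1, 0, 0, by simp [f]⟩
theorem Hs.bP (h : Hs a b d) : b ∈ h.P := ⟨0, 1, 0, by simp [f]⟩
theorem Hs.dP (h : Hs a b d) : d ∈ h.P := ⟨0, 0, 1, by simp [f]⟩

theorem Hs.d_eq (h : Hs a b d) : d = b⁻¹ * a⁻¹ * b * a := by
  rw [mul_assoc _ b, h.ba]; group

theorem Hs.norm [Finite G] (h : Hs a b d) {g : G} (ha : g * a * g⁻¹ ∈ h.P) (hb : g * b * g⁻¹ ∈ h.P) :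
    g ∈ normalizer (h.P : Set G) := by
  have hd : g * d * g⁻¹ ∈ h.P := by
    have : g * d * g⁻¹ = (g * b * g⁻¹)⁻¹ * (g * a * g⁻¹)⁻¹ * (g * b * g⁻¹) * (g * a * g⁻¹) := by
      rw [h.d_eq]; group
    rw [this]
    exact mul_mem (mul_mem (mul_mem (inv_mem hb) (inv_mem ha)) hb) ha
  refine mem_normalizer_fintype ?_
  rintro _ ⟨i, j, k, rfl⟩
  have : g * f a b d i j k * g⁻¹ = (g * a * g⁻¹) ^ i * (g * b * g⁻¹) ^ j * (g * d * g⁻¹) ^ k := by
    rw [f, conj_pow, conj_pow, conj_pow]; group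
  rw [this]
  exact mul_mem (mul_mem (pow_mem ha _) (pow_mem hb _)) (pow_mem hd _)

theorem Hs.coord (h : Hs a b d) : ∃ c : G → Fin 2 → ZMod 11,
    ∀ i j k, c (f a b d i j k) = ![(i : ZMod 11), (j : ZMod 11)] := by
  classical
  refine ⟨fun x => if hx : ∃ v : ℕ × ℕ × ℕ, x = f a b d v.1 v.2.1 v.2.2 then
    ![(hx.choose.1 : ZMod 11), (hx.choose.2.1 : ZMod 11)] else 0, fun i j k => ?_⟩
  have hx : ∃ v : ℕ × ℕ × ℕ, f a b d i j k = f a b d v.1 v.2.1 v.2.2 := ⟨(i, j, k), rfl⟩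
  obtain ⟨h1, h2, -⟩ := h.inj hx.choose_spec
  simp only [dif_pos hx]
  rw [(ZMod.natCast_eq_natCast_iff' _ _ 11).2 h1, (ZMod.natCast_eq_natCast_iff' _ _ 11).2 h2]

theorem Hs.bound [Finite G] (h : Hs a b d) (hC : centralizer (h.P : Set G) ≤ h.P) :
    Nat.card (normalizer (h.P : Set G)) ∣ 1331 * 13200 := by
  haveI : Fact (Nat.Prime 11) := ⟨by norm_num⟩
  obtain ⟨c, hc⟩ := h.coord
  set N := normalizer (h.P : Set G)
  have cj : ∀ g ∈ N, ∀ x ∈ h.P, g * x * g⁻¹ ∈ h.P := fun g hg x hx => (mem_normalizer_iff.1 hg x).1 hx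
  let θ0 : G → Matrix (Fin 2) (Fin 2) (ZMod 11) := fun g =>
    (Matrix.of ![c (g * a * g⁻¹), c (g * b * g⁻¹)])ᵀ
  have dz : ∀ g ∈ N, ∃ w, g * d * g⁻¹ = d ^ w := fun g hg => by
    obtain ⟨p, q, r, e1⟩ := cj g hg a h.aP
    obtain ⟨s, t, u, e2⟩ := cj g hg b h.bP
    obtain ⟨i, j, k, e3⟩ := cj g hg d h.dP
    have : g * b * g⁻¹ * (g * a * g⁻¹) = g * a * g⁻¹ * (g * b * g⁻¹) * (g * d * g⁻¹) := by
      calc _ = g * (b * a) * g⁻¹ := by group
        _ = _ := by rw [h.ba]; group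
    rw [e1, e2, e3, h.mul, h.mul, h.mul] at this
    obtain ⟨h1, h2, -⟩ := h.inj this
    refine ⟨k % 11, ?_⟩
    rw [e3, ← h.md, show i % 11 = 0 by omega, show j % 11 = 0 by omega]
    simp [f]
  have act : ∀ g ∈ N, ∀ x ∈ h.P, c (g * x * g⁻¹) = θ0 g *ᵥ c x := by
    rintro g hg _ ⟨i, j, k, rfl⟩
    obtain ⟨p, q, r, e1⟩ := cj g hg a h.aP
    obtain ⟨s, t, u, e2⟩ := cj g hg b h.bP
    obtain ⟨w, e3⟩ := dz g hg
    have : g * f a b d i j k * g⁻¹ = (g * a * g⁻¹) ^ i * (g * b * g⁻¹) ^ j * (g * d * g⁻¹) ^ k := by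
      rw [f, conj_pow, conj_pow, conj_pow]; group
    have e4 : (d ^ w) ^ k = f a b d 0 0 (w * k) := by simp [f, pow_mul]
    simp only [θ0]
    rw [this, e1, e2, e3, h.pow', h.pow', e4, h.mul, h.mul, hc, hc, hc, hc]
    ext m
    fin_cases m <;> simp [Matrix.mulVec, dotProduct, Fin.sum_univ_two]
  have ca : c a = ![1, 0] := by simpa [f] using hc 1 0 0
  have cb : c b = ![0, 1] := by simpa [f] using hc 0 1 0
  let θ : N →* Matrix (Fin 2) (Fin 2) (ZMod 11) :=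
    { toFun := fun g => θ0 g
      map_one' := by
        ext i j
        fin_cases i <;> fin_cases j <;> simp [θ0, ca, cb]
      map_mul' := fun g k => by
        have e : ∀ x ∈ h.P, c ((g * k : N) * x * ((g * k : N) : G)⁻¹) = θ0 g *ᵥ c (k * x * (k : G)⁻¹) :=
          fun x hx => by
            rw [← act g g.2 _ (cj k k.2 x hx)]; congr 1; push_cast; group
        ext i j
        have ea := congrFun (e a h.aP) i
        have eb := congrFun (e b h.bP) i
        fin_cases j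
        · simpa [θ0, Matrix.mul_apply, Matrix.mulVec, dotProduct] using ea
        · simpa [θ0, Matrix.mul_apply, Matrix.mulVec, dotProduct] using eb }
  have hk : θ.toHomUnits.ker ≤ h.P.subgroupOf N := fun g hg => by
    have hg' : θ0 g = 1 := congrArg Units.val hg
    obtain ⟨p, q, r, e1⟩ := cj g g.2 a h.aP
    obtain ⟨s, t, u, e2⟩ := cj g g.2 b h.bP
    have a1 := act g g.2 a h.aP
    have a2 := act g g.2 b h.bP
    rw [hg', Matrix.one_mulVec] at a1 a2
    rw [e1, hc, ca] at a1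
    rw [e2, hc, cb] at a2
    have z : ∀ {m n : ℕ}, (m : ZMod 11) = (n : ℕ) → m % 11 = n % 11 :=
      (ZMod.natCast_eq_natCast_iff' _ _ 11).1
    have p1 : p % 11 = 1 % 11 := z (by simpa using congrFun a1 0)
    have q1 : q % 11 = 0 % 11 := z (by simpa using congrFun a1 1)
    have s1 : s % 11 = 0 % 11 := z (by simpa using congrFun a2 0)
    have t1 : t % 11 = 1 % 11 := z (by simpa using congrFun a2 1)
    rw [← h.md, p1, q1] at e1
    rw [← h.md, s1, t1] at e2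
    have fa : a = f a b d 1 0 0 := by simp [f]
    have fb : b = f a b d 0 1 0 := by simp [f]
    let v := f a b d (10 * u) r 0
    have va : v * a = f a b d (1 % 11) (0 % 11) (r % 11) * v := by
      rw [fa]; simp only [v, ← fa]
      nth_rewrite 2 [fa]
      rw [h.mul, h.mul, ← h.md, ← h.md (1 % 11 + 10 * u)]
      congr 1 <;> omega
    have vb : v * b = f a b d (0 % 11) (1 % 11) (u % 11) * v := by
      have : v * b = v * f a b d 0 1 0 := by rw [← fb]
      rw [this, h.mul, h.mul, ← h.md, ← h.md (0 % 11 + 10 * u)]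
      congr 1 <;> omega
    have ya : Commute (v⁻¹ * g) a := by
      rw [← e1] at va
      calc v⁻¹ * g * a = v⁻¹ * (g * a * (g : G)⁻¹ * v) * v⁻¹ * g := by group
        _ = a * (v⁻¹ * g) := by rw [← va]; group
    have yb : Commute (v⁻¹ * g) b := by
      rw [← e2] at vb
      calc v⁻¹ * g * b = v⁻¹ * (g * b * (g : G)⁻¹ * v) * v⁻¹ * g := by group
        _ = b * (v⁻¹ * g) := by rw [← vb]; group
    have yd : Commute (v⁻¹ * g) d := by
      rw [h.d_eq]
      exact ((yb.inv_right.mul_right ya.inv_right).mul_right yb).mul_right ya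
    have : v⁻¹ * g ∈ h.P := hC (by
      rintro _ ⟨i, j, k, rfl⟩
      exact (((ya.pow_right i).mul_right (yb.pow_right j)).mul_right (yd.pow_right k)).eq.symm)
    exact (h.P.mul_mem_cancel_left (inv_mem ⟨_, _, _, rfl⟩)).1 this
  rw [← θ.toHomUnits.ker.card_mul_index, index_ker]
  refine mul_dvd_mul ((card_dvd_of_le hk).trans ?_) ((card_subgroup_dvd_card _).trans ?_)
  · rw [Nat.card_congr (subgroupOfEquivOfLe le_normalizer).toEquiv, h.card]; norm_num
  · have : Nat.card (GL (Fin 2) (ZMod 11)) = 13200 := by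
      rw [Matrix.card_GL_field, ZMod.card]; simp [Fin.prod_univ_two]
    exact this.dvd

theorem Hs.core [Finite G] (h : Hs a b d) (hc : Nat.card G = 86775571046077562880)
    (cent : ∀ x : G, (orderOf x).Prime → orderOf x ≠ 11 →
      ¬ 121 ∣ Nat.card (centralizer ({x} : Set G)))
    {n : G} (n5 : orderOf n = 5) (hn : n ∈ normalizer (h.P : Set G)) (F : A3 →* G)
    (hF : Function.Injective F) (hF' : ∀ x, F x ∈ normalizer (h.P : Set G)) (U : Sylow 11 G)
    (hU : (U : Subgroup G) = h.P) :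
    Cfsg.IsExtraspecial 11 ↥(U : Subgroup G) ∧ Nat.card ↥(U : Subgroup G) = 11 ^ 3 ∧
    Monoid.exponent ↥(U : Subgroup G) = 11 ∧
    Nat.card ↥(Subgroup.normalizer ((U : Subgroup G) : Set G)) = 2 ^ 4 * 3 * 5 * 11 ^ 3 ∧
    ∃ K : Subgroup G, K ≤ Subgroup.normalizer ((U : Subgroup G) : Set G) ∧
      Nonempty (↥K ≃* GL (Fin 2) (ZMod 3)) := by
  haveI : Fact (Nat.Prime 11) := ⟨by norm_num⟩
  have hC : centralizer (h.P : Set G) ≤ h.P := by
    have p1 : IsPGroup 11 (centralizer (h.P : Set G)) := by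
      refine IsPGroup.of_card (Nat.eq_prime_pow_of_unique_prime_dvd Nat.card_pos.ne' fun {r} hr hd => ?_)
      haveI := Fact.mk hr
      obtain ⟨x, hx⟩ := exists_prime_orderOf_dvd_card' r hd
      rw [← orderOf_coe] at hx
      by_contra h11
      refine cent x (hx ▸ hr) (hx ▸ h11) (dvd_trans (by rw [h.card]; norm_num)
        (card_dvd_of_le (H := h.P) fun y hy => mem_centralizer_singleton_iff.2 (x.2 y hy)))
    have p2 := IsPGroup.to_sup_of_normal_right' p1 (hU ▸ U.isPGroup' : IsPGroup 11 h.P)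
      (centralizer_le_normalizer _)
    have := U.is_maximal' p2 (hU ▸ le_sup_right)
    rw [← hU] at this ⊢
    exact le_sup_left.trans this.le
  rw [hU]
  refine ⟨H13.extraspecial_of_card h.card fun hm => h.d1 ?_, h.card, ?_, ?_,
    F.range, by rintro _ ⟨x, rfl⟩; exact hF' x, ⟨(MonoidHom.ofInjective hF).symm⟩⟩
  · have : b * a = a * b := congrArg Subtype.val (hm.1.1 ⟨b, h.bP⟩ ⟨a, h.aP⟩)
    simpa [this] using h.ba
  · have h1 : Monoid.exponent h.P ∣ 11 :=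
      Monoid.exponent_dvd_of_forall_pow_eq_one fun x => Subtype.ext (h.exp x.2)
    refine ((Nat.dvd_prime (by norm_num)).1 h1).resolve_left fun e => h.d1 ?_
    have := Monoid.pow_exponent_eq_one (⟨d, h.dP⟩ : h.P)
    rw [e, pow_one] at this
    exact congrArg Subtype.val this
  · have u1 := h.bound hC
    have u2 := hc ▸ card_subgroup_dvd_card (normalizer (h.P : Set G))
    have u3 := Nat.dvd_gcd u1 u2
    have l1 : 1331 ∣ Nat.card (normalizer (h.P : Set G)) :=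
      dvd_trans (by rw [h.card]; norm_num) (card_dvd_of_le (H := h.P) le_normalizer)
    have l2 : 5 ∣ Nat.card (normalizer (h.P : Set G)) := by
      rw [← n5]
      exact Subgroup.orderOf_dvd_natCard _ hn
    have l3 : 48 ∣ Nat.card (normalizer (h.P : Set G)) := by
      have : Nat.card A3 = 48 := by
        rw [Matrix.card_GL_field, ZMod.card]; simp [Fin.prod_univ_two]
      rw [← this, Nat.card_congr (MonoidHom.ofInjective hF).toEquiv]
      exact card_dvd_of_le (by rintro _ ⟨x, rfl⟩; exact hF' x)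
    refine Nat.dvd_antisymm (u3.trans (by norm_num)) ?_
    exact (Nat.Coprime.mul_dvd_of_dvd_of_dvd (by norm_num)
      (Nat.Coprime.mul_dvd_of_dvd_of_dvd (by norm_num) l3 l2) l1 : 48 * 5 * 1331 ∣ _)

end H10.C11
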