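import Cfsg.Agent.H10.C11a
import Cfsg.Agent.H10.S11a

/-! The Sylow 11-normalizer of `J4`. -/

set_option autoImplicit false
set_option maxRecDepth 100000
set_option maxHeartbeats 400000

namespace H10.C11
open Cfsg Cfsg.Spor H7.J4 H29 H29.J4m Subgroup

def Wd : List Ex := [.v 9, .v 0, .v 1, .m (.v 0) (.v 0), .m (.v 0) (.v 1), .m (.v 1) (.v 0), .m (.v 1) (.v 1), .m (.m (.v 0) (.v 0)) (.v 1), .m (.m (.v 0) (.v 1)) (.v 0), .m (.m (.v 0) (.v 1)) (.v 1), .m (.m (.v 1) (.v 0)) (.v 0), .m (.m (.v 1) (.v 0)) (.v 1), .m (.m (.v 1) (.v 1)) (.v 0), .m (.m (.v 1) (.v 1)) (.v 1), .m (.m (.m (.v 0) (.v 0)) (.v 1)) (.v 0), .m (.m (.m (.v 0) (.v 0)) (.v 1)) (.v 1), .m (.m (.m (.v 0) (.v 1)) (.v 0)) (.v 0), .m (.m (.m (.v 0) (.v 1)) (.v 0)) (.v 1), .m (.m (.m (.v 0) (.v 1)) (.v 1)) (.v 0), .m (.m (.m (.v 0) (.v 1)) (.v 1)) (.v 1), .m (.m (.m (.v 1) (.v 0))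 (.v 1)) (.v 0), .m (.m (.m (.v 1) (.v 0)) (.v 1)) (.v 1), .m (.m (.m (.v 1) (.v 1)) (.v 0)) (.v 0), .m (.m (.m (.v 1) (.v 1)) (.v 0)) (.v 1), .m (.m (.m (.v 1) (.v 1)) (.v 1)) (.v 0), .m (.m (.m (.v 1) (.v 1)) (.v 1)) (.v 1), .m (.m (.m (.m (.v 0) (.v 0)) (.v 1)) (.v 0)) (.v 0), .m (.m (.m (.m (.v 0) (.v 0)) (.v 1)) (.v 0)) (.v 1), .m (.m (.m (.m (.v 0) (.v 0)) (.v 1)) (.v 1)) (.v 0), .m (.m (.m (.m (.v 0) (.v 0)) (.v 1)) (.v 1)) (.v 1), .m (.m (.m (.m (.v 0) (.v 1)) (.v 0)) (.v 1)) (.v 0), .m (.m (.m (.m (.v 0) (.v 1)) (.v 0)) (.v 1)) (.v 1), .m (.m (.m (.m (.v 0) (.v 1)) (.v 1)) (.v 0)) (.v 0), .m (.m (.m (.m (.v 0) (.v 1)) (.v 1)) (.v 0)) (.v 1), .m (.m (.m (.m (.v 0) (.v 1)) (.v 1)) (.v 1)) (.v 0), .m (.m (.m (.m (.v 0) (.v 1)) (.v 1)) (.v 1)) (.v 1), .m (.m (.m (.m (.v 1) (.v 0)) (.v 1)) (.v 0)) (.v 0), .m (.m (.m (.m (.v 1) (.v 0)) (.v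 1)) (.v 0)) (.v 1), .m (.m (.m (.m (.v 1) (.v 0)) (.v 1)) (.v 1)) (.v 0), .m (.m (.m (.m (.v 1) (.v 0)) (.v 1)) (.v 1)) (.v 1), .m (.m (.m (.m (.v 1) (.v 1)) (.v 0)) (.v 1)) (.v 0), .m (.m (.m (.m (.v 1) (.v 1)) (.v 0)) (.v 1)) (.v 1), .m (.m (.m (.m (.v 1) (.v 1)) (.v 1)) (.v 0)) (.v 0), .m (.m (.m (.m (.v 1) (.v 1)) (.v 1)) (.v 0)) (.v 1), .m (.m (.m (.m (.m (.v 0) (.v 0)) (.v 1)) (.v 1)) (.v 1)) (.v 0), .m (.m (.m (.m (.m (.v 0) (.v 0)) (.v 1)) (.v 1)) (.v 1)) (.v 1), .m (.m (.m (.m (.m (.v 0) (.v 1)) (.v 1)) (.v 1)) (.v 0)) (.v 0), .m (.m (.m (.m (.m (.v 0) (.v 1)) (.v 1)) (.v 1)) (.v 0)) (.v 1)]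
def Es : List Ex := [.p (.v 3) 11, .p (.v 4) 5]

theorem data2 : ∃ (a b d : J4) (h : Hs a b d) (n : J4) (F : A3 →* J4), orderOf n = 5 ∧
    n ∈ normalizer (h.P : Set J4) ∧ Function.Injective F ∧ ∀ x, F x ∈ normalizer (h.P : Set J4) := by
  haveI : Finite J4 := Nat.finite_of_card_ne_zero (by rw [H7.JD.j_main.2.1.2]; norm_num)
  haveI : Fact (Nat.Prime 5) := ⟨by norm_num⟩
  obtain ⟨ρ, hρ, h⟩ := model
  have s : Std (ar.model ρ hρ) := ⟨rfl, rfl, rfl⟩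
  have v : ∀ c ∈ L1, (ar.model ρ hρ).In ⊤ c := fun c hc => by
    obtain ⟨i, -, rfl⟩ := exists_lgetD (ar.model ρ hρ).one hc
    exact ⟨_, trivial, R_getD h i⟩
  obtain ⟨a, -, ha⟩ := s.slp v sa (c := ca) (by decide +kernel)
  obtain ⟨b, -, hb⟩ := s.slp v sb (c := cb) (by decide +kernel)
  obtain ⟨m, -, hm⟩ := s.slp v sn1 (c := cn1) (by decide +kernel)
  obtain ⟨n, -, hn⟩ := s.slp v sn2 (c := cn2) (by decide +kernel)
  have h0 : List.Forall₂ (ar.model ρ hρ).R [ca, cb] [a, b] := .cons ha (.cons hb .nil)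
  obtain ⟨d, hd⟩ : ∃ d, (ar.model ρ hρ).R cd d :=
    ⟨_, s.lit h0 (.m (.m (.m (.p (.v 1) 10) (.p (.v 0) 10)) (.v 1)) (.v 0)) (by decide +kernel)⟩
  have k : List.Forall₂ (ar.model ρ hρ).R LL [a, b, d, m, n] :=
    .cons ha (.cons hb (.cons hd (.cons hm (.cons hn .nil))))
  have H : Hs a b d := ⟨s.eq k (.p (.v 0) 11) (.v 9) (by decide +kernel),
    s.eq k (.p (.v 1) 11) (.v 9) (by decide +kernel), s.eq k (.p (.v 2) 11) (.v 9) (by decide +kernel),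
    s.eq k (.m (.v 1) (.v 0)) (.m (.m (.v 0) (.v 1)) (.v 2)) (by decide +kernel),
    s.eq k (.m (.v 2) (.v 0)) (.m (.v 0) (.v 2)) (by decide +kernel),
    s.eq k (.m (.v 2) (.v 1)) (.m (.v 1) (.v 2)) (by decide +kernel),
    s.ne k (.v 2) (.v 9) (by decide +kernel)⟩
  have mN : m ∈ normalizer (H.P : Set J4) := H.norm
    ⟨6, 9, 5, mul_inv_eq_iff_eq_mul.2 (s.eq k (.m (.v 3) (.v 0)) (.m (fE 6 9 5) (.v 3)) (by decide +kernel))⟩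
    ⟨5, 4, 10, mul_inv_eq_iff_eq_mul.2 (s.eq k (.m (.v 3) (.v 1)) (.m (fE 5 4 10) (.v 3)) (by decide +kernel))⟩
  have nN : n ∈ normalizer (H.P : Set J4) := H.norm
    ⟨6, 2, 6, mul_inv_eq_iff_eq_mul.2 (s.eq k (.m (.v 4) (.v 0)) (.m (fE 6 2 6) (.v 4)) (by decide +kernel))⟩
    ⟨9, 4, 7, mul_inv_eq_iff_eq_mul.2 (s.eq k (.m (.v 4) (.v 1)) (.m (fE 9 4 7) (.v 4)) (by decide +kernel))⟩
  have k2 : List.Forall₂ (ar.model ρ hρ).R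
      [(Ex.p (.v 3) 11).c kmul kone LL, (Ex.p (.v 4) 5).c kmul kone LL] [m ^ 11, n ^ 5] :=
    .cons ((Ex.p (.v 3) 11).R k) (.cons ((Ex.p (.v 4) 5).R k) .nil)
  have c : ∀ L, L = [(Ex.p (.v 3) 11).c kmul kone LL, (Ex.p (.v 4) 5).c kmul kone LL] → ∀ i < 48,
      Nat.beq ((Ex.m (Wd.getD i (.v 9)) (.v 0)).c kmul kone L) ((Wd.getD (t0 i) (.v 9)).c kmul kone L) = true ∧
      Nat.beq ((Ex.m (Wd.getD i (.v 9)) (.v 1)).c kmul kone L) ((Wd.getD (t1 i) (.v 9)).c kmul kone L) = true ∧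
      (i = 0 ∨ Nat.beq ((Wd.getD i (.v 9)).c kmul kone L) ((Ex.v 9).c kmul kone L) = false) := by
    rintro _ rfl
    decide +kernel
  obtain ⟨F, hF, hF'⟩ := gl (s := m ^ 11) (q := n ^ 5) (fun i => (Wd.getD i (.v 9)).g [m ^ 11, n ^ 5]) rfl
    (fun i hi => s.eq k2 (.m _ (.v 0)) _ (c _ rfl i hi).1)
    (fun i hi => s.eq k2 (.m _ (.v 1)) _ (c _ rfl i hi).2.1)
    (fun i hi e => (c _ rfl i hi).2.2.resolve_right fun e' => s.ne k2 _ (.v 9) e' e)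
    (s.eq k (.p (.p (.v 3) 11) 3) (.v 9) (by decide +kernel))
    (s.eq k (.p (.p (.v 4) 5) 8) (.v 9) (by decide +kernel)) (pow_mem mN 11) (pow_mem nN 5)
  exact ⟨a, b, d, H, n ^ 8, F, orderOf_eq_prime (s.eq k (.p (.p (.v 4) 8) 5) (.v 9) (by decide +kernel))
    (s.ne k (.p (.v 4) 8) (.v 9) (by decide +kernel)), pow_mem nN 8, hF, hF'⟩

theorem Hs.map {G H : Type*} [Group G] [Group H] {a b d : G} (h : Hs a b d) (φ : G →* H)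
    (hφ : Function.Injective φ) : ∃ k : Hs (φ a) (φ b) (φ d), k.P = h.P.map φ := by
  refine ⟨⟨by rw [← map_pow, h.a11, map_one], by rw [← map_pow, h.b11, map_one],
    by rw [← map_pow, h.d11, map_one], by simp only [← map_mul, h.ba], by simp only [← map_mul, h.da],
    by simp only [← map_mul, h.db], fun e => h.d1 (hφ (e.trans (map_one φ).symm))⟩, ?_⟩
  ext x
  constructor
  · rintro ⟨i, j, k, rfl⟩
    exact ⟨_, ⟨i, j, k, rfl⟩, by simp [f]⟩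
  · rintro ⟨_, ⟨i, j, k, rfl⟩, rfl⟩
    exact ⟨i, j, k, by simp [f]⟩

theorem s11 {G : Type*} [Group G] [Finite G] (e : G ≃* J4)
    (cent : ∀ x : G, (orderOf x).Prime → orderOf x ≠ 11 →
      ¬ 121 ∣ Nat.card (centralizer ({x} : Set G))) (U : Sylow 11 G) :
    Cfsg.IsExtraspecial 11 ↥(U : Subgroup G) ∧ Nat.card ↥(U : Subgroup G) = 11 ^ 3 ∧
    Monoid.exponent ↥(U : Subgroup G) = 11 ∧
    Nat.card ↥(Subgroup.normalizer ((U : Subgroup G) : Set G)) = 2 ^ 4 * 3 * 5 * 11 ^ 3 ∧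
    ∃ K : Subgroup G, K ≤ Subgroup.normalizer ((U : Subgroup G) : Set G) ∧
      Nonempty (↥K ≃* GL (Fin 2) (ZMod 3)) := by
  haveI : Fact (Nat.Prime 11) := ⟨by norm_num⟩
  have hc : Nat.card G = 86775571046077562880 := (Nat.card_congr e.toEquiv).trans H7.JD.j_main.2.1.2
  obtain ⟨a, b, d, h, n, F, n5, hn, hF, hF'⟩ := data2
  obtain ⟨k0, e0⟩ := h.map e.symm.toMonoidHom e.symm.injective
  let S : Sylow 11 G := Sylow.ofCard k0.P (by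
    rw [k0.card, hc, show (86775571046077562880 : ℕ) = 11 ^ 3 * 65195770883604480 by norm_num,
      Nat.factorization_mul (by norm_num) (by norm_num), Nat.Prime.factorization_pow (by norm_num),
      Finsupp.add_apply, Finsupp.single_eq_same,
      Nat.factorization_eq_zero_of_not_dvd (by norm_num)])
  obtain ⟨g, rfl⟩ := MulAction.exists_smul_eq G S U
  let φ : J4 →* G := (MulAut.conj g).toMonoidHom.comp e.symm.toMonoidHom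
  have hφ : Function.Injective φ := (MulAut.conj g).injective.comp e.symm.injective
  obtain ⟨k, e1⟩ := h.map φ hφ
  have nm : ∀ x ∈ normalizer (h.P : Set J4), φ x ∈ normalizer (k.P : Set G) := fun x hx => by
    rw [e1]; exact le_normalizer_map φ (mem_map_of_mem φ hx)
  refine k.core hc cent ((orderOf_injective φ hφ n).trans n5) (nm n hn) (φ.comp F) (hφ.comp hF)
    (fun x => nm _ (hF' x)) _ ?_
  rw [e1, ← map_map, ← e0]
  rfl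

end H10.C11
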